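import Mathlib
import Cfsg.Agent.H514.DP.Core

/-!
# The coset lemma (S5714)

`G` finite, all non-trivial irreducible characters of degree at least `d`.

* `pair_bound` : for a real class function `f` and `z` with `|C(z)| ≤ D`:
  `|∑ x, f x * f (x * z) - (∑ x, f x)² / |G|| ≤ √D / d * ∑ x, f x ²`.
* `coset_bound` : `A` closed under conjugation, `t : ι → G` with `|C((t i)⁻¹ * t j)| ≤ D` for `i ≠ j`:
  `#{x | ∀ i, x * t i ∉ A} * (|ι| |A|) ≤ |G|² (1 + |ι| √D / d)`.
* `pairs_bound` : the number of pairs `(x, y)` such that `⟨x, y⟩` misses `A`.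
-/

set_option autoImplicit false

namespace Cfsg.Agent.H926.RG

open Cfsg Cfsg.Agent.Characters Cfsg.Agent.H686.CharKit Subgroup Cfsg.Agent.H514.DP
open scoped ComplexConjugate

universe u

section

variable {G : Type u} [Group G]

/-- all non-trivial irreducible characters have degree at least `d` -/
def IrrDeg (G : Type u) [Group G] (d : ℕ) : Prop :=
  ∀ χ : G → ℂ, IsIrrCharacter G χ → χ ≠ 1 → ∃ n : ℕ, d ≤ n ∧ 0 < n ∧ χ 1 = n

theorem IrrDeg.of_minDeg [Finite G] {d : ℕ} (hperf : commutator G = ⊤) (hd : MinDeg G d) : IrrDeg G d := by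
  intro χ hχ h1
  exact hd.le hχ fun h => h1 (eq_one_of_perf hperf hχ h)

variable [Fintype G]

theorem sum_class_mul {F : G → ℂ} (hF : IsClassFunction G F) {χ : G → ℂ} (hχ : IsIrrCharacter G χ) (z : G) :
    ∑ x, F x * χ (x * z) = (∑ x, F x * χ x) * χ z / χ 1 := by
  have hG : (Nat.card G : ℂ) ≠ 0 := by exact_mod_cast Nat.card_pos.ne'
  have h1 : χ 1 ≠ 0 := Core.isIrr_apply_one_ne_zero hχ
  have key : ∀ a : G, ∑ x, F x * χ (x * z) = ∑ x, F x * χ (a * x * a⁻¹ * z) := by
    intro a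
    rw [← (MulAut.conj a).toEquiv.sum_comp (fun x => F x * χ (x * z))]
    refine Finset.sum_congr rfl fun x _ => ?_
    have e : ((MulAut.conj a).toEquiv x : G) = a * x * a⁻¹ := rfl
    rw [e]
    congr 1
    exact hF x a
  have h2 : (Nat.card G : ℂ) * ∑ x, F x * χ (x * z) = (Nat.card G : ℂ) * ((∑ x, F x * χ x) * χ z / χ 1) := by
    calc (Nat.card G : ℂ) * ∑ x, F x * χ (x * z) = ∑ a : G, ∑ x, F x * χ (x * z) := by
          rw [Finset.sum_const, Finset.card_univ, nsmul_eq_mul, Nat.card_eq_fintype_card]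
      _ = ∑ a : G, ∑ x, F x * χ (a * x * a⁻¹ * z) := Finset.sum_congr rfl fun a _ => key a
      _ = ∑ x, ∑ a : G, F x * χ (a * x * a⁻¹ * z) := Finset.sum_comm
      _ = ∑ x, F x * ((Nat.card G : ℂ) * χ x * χ z / χ 1) := by
          refine Finset.sum_congr rfl fun x _ => ?_
          rw [← Finset.mul_sum, Central.sum_char_conj_mul hχ]
      _ = (Nat.card G : ℂ) * ((∑ x, F x * χ x) * χ z / χ 1) := by
          rw [Finset.sum_mul, Finset.sum_div, Finset.mul_sum]
          refine Finset.sum_congr rfl fun x _ => ?_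
          ring
  exact mul_left_cancel₀ hG h2

/-- the real class function as a complex one -/
theorem pair_eq [Fintype (IrrCharacter G)] {f : G → ℝ} (hf : ∀ g x, f (g * x * g⁻¹) = f x) (z : G) :
    ((∑ x, f x * f (x * z) : ℝ) : ℂ) = (Nat.card G : ℂ) * ∑ χ : IrrCharacter G,
      ((Complex.normSq (classInner (fun x => (f x : ℂ)) (χ : G → ℂ)) : ℝ) : ℂ) * ((χ : G → ℂ) z / (χ : G → ℂ) 1) := by
  have hF : IsClassFunction G (fun x => (f x : ℂ)) := by
    rw [Core.isClassFunction_def]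
    intro g x
    exact_mod_cast hf x g
  have hG : (Nat.card G : ℂ) ≠ 0 := by exact_mod_cast Nat.card_pos.ne'
  have hexp := Core.classFunction_eq_sum hF
  have h1 : ∀ χ : IrrCharacter G, ∑ x, (f x : ℂ) * (χ : G → ℂ) x =
      (Nat.card G : ℂ) * conj (classInner (fun x => (f x : ℂ)) (χ : G → ℂ)) := by
    intro χ
    rw [Core.classInner_def, map_mul, map_inv₀, Complex.conj_natCast, map_sum]
    rw [← mul_assoc, mul_inv_cancel₀ hG, one_mul]
    refine Finset.sum_congr rfl fun x _ => ?_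
    rw [map_mul, Complex.conj_conj, Complex.conj_ofReal]
  have h2 : ((∑ x, f x * f (x * z) : ℝ) : ℂ) = ∑ x, (f x : ℂ) * ((f (x * z) : ℝ) : ℂ) := by
    push_cast
    rfl
  have h3 : ∀ x : G, ((f (x * z) : ℝ) : ℂ) = ∑ χ : IrrCharacter G,
      classInner (fun x => (f x : ℂ)) (χ : G → ℂ) * (χ : G → ℂ) (x * z) := by
    intro x
    have := congrFun hexp (x * z)
    simpa only [Finset.sum_apply, Pi.smul_apply, smul_eq_mul] using this
  rw [h2]
  simp only [h3]
  simp only [Finset.mul_sum]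
  rw [Finset.sum_comm]
  refine Finset.sum_congr rfl fun χ _ => ?_
  have h4 := sum_class_mul hF χ.2 z
  rw [h1] at h4
  calc ∑ x, (f x : ℂ) * (classInner (fun x => (f x : ℂ)) (χ : G → ℂ) * (χ : G → ℂ) (x * z))
      = classInner (fun x => (f x : ℂ)) (χ : G → ℂ) * ∑ x, (f x : ℂ) * (χ : G → ℂ) (x * z) := by
        rw [Finset.mul_sum]
        refine Finset.sum_congr rfl fun x _ => ?_
        ring
    _ = _ := by
        rw [h4, Complex.normSq_eq_conj_mul_self]
        ring

/-- **pairs** -/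
theorem pair_bound {d D : ℕ} (hd : IrrDeg G d) (hd0 : 0 < d) {f : G → ℝ} (hf : ∀ g x, f (g * x * g⁻¹) = f x) {z : G}
    (hz : Nat.card (centralizer ({z} : Set G)) ≤ D) :
    ∑ x, f x * f (x * z) ≤ (∑ x, f x) ^ 2 / Nat.card G + Real.sqrt D / d * ∑ x, f x ^ 2 := by
  classical
  have := Core.finite_irr (G := G)
  have := Fintype.ofFinite (IrrCharacter G)
  have hG : (0 : ℝ) < Nat.card G := by exact_mod_cast Nat.card_pos
  have hdR : (0 : ℝ) < d := by exact_mod_cast hd0
  have h0 := pair_eq hf z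
  set c : IrrCharacter G → ℝ := fun χ => Complex.normSq (classInner (fun x => (f x : ℂ)) (χ : G → ℂ)) with hc
  have hc0 : ∀ χ, 0 ≤ c χ := fun χ => Complex.normSq_nonneg _
  -- real part
  have h1 : ∑ x, f x * f (x * z) = Nat.card G * ∑ χ : IrrCharacter G, c χ * ((χ : G → ℂ) z / (χ : G → ℂ) 1).re := by
    have h2 := congrArg Complex.re h0
    rw [Complex.ofReal_re] at h2
    rw [h2]
    have h3 : ((Nat.card G : ℂ) * ∑ χ : IrrCharacter G, ((c χ : ℝ) : ℂ) * ((χ : G → ℂ) z / (χ : G → ℂ) 1)).re =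
        (Nat.card G : ℝ) * (∑ χ : IrrCharacter G, ((c χ : ℝ) : ℂ) * ((χ : G → ℂ) z / (χ : G → ℂ) 1)).re := by
      have h4 : (Nat.card G : ℂ) = ((Nat.card G : ℝ) : ℂ) := by push_cast; rfl
      rw [h4, Complex.re_ofReal_mul]
    rw [h3, Complex.re_sum]
    congr 1
    refine Finset.sum_congr rfl fun χ _ => ?_
    rw [Complex.re_ofReal_mul]
  -- Parseval
  have hF : IsClassFunction G (fun x => (f x : ℂ)) := by
    rw [Core.isClassFunction_def]
    intro g x
    exact_mod_cast hf x g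
  have hP : ∑ χ : IrrCharacter G, c χ = (∑ x, f x ^ 2) / Nat.card G := by
    have h2 := Core.classInner_eq_sum hF hF
    rw [Core.classInner_def] at h2
    have h3 : ((Nat.card G : ℂ)⁻¹ * ∑ x, (f x : ℂ) * conj ((f x : ℝ) : ℂ)) =
        (((∑ x, f x ^ 2) / Nat.card G : ℝ) : ℂ) := by
      push_cast
      rw [div_eq_inv_mul]
      congr 1
      refine Finset.sum_congr rfl fun x _ => ?_
      rw [Complex.conj_ofReal, sq]
    have h4 : (∑ χ : IrrCharacter G, classInner (fun x => (f x : ℂ)) (χ : G → ℂ) *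
        conj (classInner (fun x => (f x : ℂ)) (χ : G → ℂ))) = ((∑ χ : IrrCharacter G, c χ : ℝ) : ℂ) := by
      push_cast
      refine Finset.sum_congr rfl fun χ _ => ?_
      rw [Complex.mul_conj]
    have h5 := h3.symm.trans (h2.trans h4)
    exact_mod_cast h5.symm
  -- the trivial character
  let χ₁ : IrrCharacter G := ⟨1, Core.isIrr_one⟩
  have hc1 : c χ₁ = ((∑ x, f x) / Nat.card G) ^ 2 := by
    have h2 : classInner (fun x => (f x : ℂ)) (1 : G → ℂ) = (((∑ x, f x) / Nat.card G : ℝ) : ℂ) := by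
      rw [Core.classInner_def]
      push_cast
      rw [div_eq_inv_mul]
      congr 1
      refine Finset.sum_congr rfl fun x _ => ?_
      simp
    show Complex.normSq (classInner (fun x => (f x : ℂ)) (1 : G → ℂ)) = _
    rw [h2, Complex.normSq_ofReal, sq]
  have hr : ∀ χ : IrrCharacter G, χ ≠ χ₁ → ((χ : G → ℂ) z / (χ : G → ℂ) 1).re ≤ Real.sqrt D / d := by
    intro χ hχ
    obtain ⟨n, hn, hn0, hn1⟩ := hd χ.1 χ.2 fun h => hχ (Subtype.ext h)
    have hnR : (0 : ℝ) < n := by exact_mod_cast hn0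
    have h2 : ‖(χ : G → ℂ) z‖ ≤ Real.sqrt D := by
      apply Real.le_sqrt_of_sq_le
      have h3 : Complex.normSq ((χ : G → ℂ) z) ≤ ∑ χ : IrrCharacter G, Complex.normSq ((χ : G → ℂ) z) :=
        Finset.single_le_sum (f := fun χ : IrrCharacter G => Complex.normSq ((χ : G → ℂ) z))
          (fun i _ => Complex.normSq_nonneg _) (Finset.mem_univ χ)
      rw [sum_normSq] at h3
      rw [Complex.normSq_eq_norm_sq] at h3
      exact h3.trans (by exact_mod_cast hz)
    calc ((χ : G → ℂ) z / (χ : G → ℂ) 1).re ≤ ‖(χ : G → ℂ) z / (χ : G → ℂ) 1‖ := Complex.re_le_norm _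
      _ = ‖(χ : G → ℂ) z‖ / n := by rw [norm_div, hn1, Complex.norm_natCast]
      _ ≤ Real.sqrt D / d := div_le_div₀ (Real.sqrt_nonneg _) h2 hdR (by exact_mod_cast hn)
  have hone : ((χ₁ : G → ℂ) z / (χ₁ : G → ℂ) 1).re = 1 := by
    show ((1 : G → ℂ) z / (1 : G → ℂ) 1).re = 1
    simp
  have h6 : ∑ χ : IrrCharacter G, c χ * ((χ : G → ℂ) z / (χ : G → ℂ) 1).re ≤
      c χ₁ + Real.sqrt D / d * ∑ χ : IrrCharacter G, c χ := by
    rw [← Finset.add_sum_erase _ _ (Finset.mem_univ χ₁), hone, mul_one]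
    gcongr
    calc ∑ χ ∈ Finset.univ.erase χ₁, c χ * ((χ : G → ℂ) z / (χ : G → ℂ) 1).re
        ≤ ∑ χ ∈ Finset.univ.erase χ₁, c χ * (Real.sqrt D / d) := by
          refine Finset.sum_le_sum fun χ hχ => ?_
          exact mul_le_mul_of_nonneg_left (hr χ (Finset.ne_of_mem_erase hχ)) (hc0 χ)
      _ ≤ ∑ χ, c χ * (Real.sqrt D / d) :=
          Finset.sum_le_sum_of_subset_of_nonneg (Finset.erase_subset _ _)
            fun i _ _ => mul_nonneg (hc0 i) (div_nonneg (Real.sqrt_nonneg _) hdR.le)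
      _ = Real.sqrt D / d * ∑ χ : IrrCharacter G, c χ := by rw [← Finset.sum_mul, mul_comm]
  rw [h1]
  calc (Nat.card G : ℝ) * ∑ χ : IrrCharacter G, c χ * ((χ : G → ℂ) z / (χ : G → ℂ) 1).re
      ≤ Nat.card G * (c χ₁ + Real.sqrt D / d * ∑ χ : IrrCharacter G, c χ) := mul_le_mul_of_nonneg_left h6 hG.le
    _ = (∑ x, f x) ^ 2 / Nat.card G + Real.sqrt D / d * ∑ x, f x ^ 2 := by
        rw [hP, hc1]
        field_simp

open scoped Classical in
/-- **The coset lemma.** -/
theorem coset_bound {d D : ℕ} (hd : IrrDeg G d) (hd0 : 0 < d) {A : Set G} (hA : ∀ g x, x ∈ A → g * x * g⁻¹ ∈ A)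
    {ι : Type*} [Fintype ι] (t : ι → G)
    (ht : ∀ i j, i ≠ j → Nat.card (centralizer ({(t i)⁻¹ * t j} : Set G)) ≤ D) :
    (Nat.card {x : G // ∀ i, x * t i ∉ A} : ℝ) * (Nat.card ι * Nat.card A) ≤
      (Nat.card G : ℝ) ^ 2 * (1 + Nat.card ι * (Real.sqrt D / d)) := by
  have hdR : (0 : ℝ) < d := by exact_mod_cast hd0
  have hG : (0 : ℝ) < Nat.card G := by exact_mod_cast Nat.card_pos
  set f : G → ℝ := fun x => if x ∈ A then 1 else 0 with hfdef
  have hf : ∀ g x, f (g * x * g⁻¹) = f x := by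
    intro g x
    simp only [hfdef]
    congr 1
    refine propext ⟨fun h => ?_, hA g x⟩
    have := hA g⁻¹ _ h
    rwa [show g⁻¹ * (g * x * g⁻¹) * g⁻¹⁻¹ = x by group] at this
  set a : ℝ := (Nat.card A : ℝ) with ha
  have ha0 : 0 ≤ a := Nat.cast_nonneg _
  set N : ℝ := (Nat.card ι : ℝ) with hN
  have hN0 : 0 ≤ N := Nat.cast_nonneg _
  have hsum : ∑ x, f x = a := by
    simp only [hfdef]
    rw [Finset.sum_boole, ha, Nat.card_eq_fintype_card]
    congr 1
    rw [Fintype.card_subtype]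
  have hsq : ∀ x, f x ^ 2 = f x := by
    intro x
    simp only [hfdef]
    split_ifs <;> norm_num
  have hsum2 : ∑ x, f x ^ 2 = a := by simp only [hsq]; exact hsum
  set r : ℝ := Real.sqrt D / d with hr
  have hr0 : 0 ≤ r := div_nonneg (Real.sqrt_nonneg _) hdR.le
  -- the pairs
  have hpair : ∀ i j, i ≠ j → ∑ x, f (x * t i) * f (x * t j) ≤ a ^ 2 / Nat.card G + r * a := by
    intro i j hij
    have h1 := pair_bound hd hd0 hf (ht i j hij)
    rw [hsum, hsum2] at h1
    have h2 : ∑ x, f (x * t i) * f (x * t j) = ∑ x, f x * f (x * ((t i)⁻¹ * t j)) := by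
      rw [← Equiv.sum_comp (Equiv.mulRight (t i)) (fun x => f x * f (x * ((t i)⁻¹ * t j)))]
      refine Finset.sum_congr rfl fun x _ => ?_
      show _ = f (x * t i) * f (x * t i * ((t i)⁻¹ * t j))
      rw [mul_assoc x, mul_inv_cancel_left]
    rw [h2]
    exact h1
  have hdiag : ∀ i, ∑ x, f (x * t i) * f (x * t i) = a := by
    intro i
    refine (Equiv.sum_comp (Equiv.mulRight (t i)) (fun x => f x * f x)).trans ?_
    rw [← hsum2]
    exact Finset.sum_congr rfl fun x _ => (sq _).symm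
  set X : G → ℝ := fun x => ∑ i, f (x * t i) with hX
  have hX1 : ∑ x, X x = N * a := by
    simp only [hX]
    rw [Finset.sum_comm]
    have : ∀ i, ∑ x, f (x * t i) = a := fun i =>
      (Equiv.sum_comp (Equiv.mulRight (t i)) f).trans hsum
    simp only [this]
    rw [Finset.sum_const, Finset.card_univ, nsmul_eq_mul, hN, Nat.card_eq_fintype_card]
  have hX2 : ∑ x, X x ^ 2 ≤ N * a + N ^ 2 * (a ^ 2 / Nat.card G + r * a) := by
    have h1 : ∑ x, X x ^ 2 = ∑ i, ∑ j, ∑ x, f (x * t i) * f (x * t j) := by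
      simp only [hX, sq, Finset.sum_mul_sum]
      rw [Finset.sum_comm]
      refine Finset.sum_congr rfl fun i _ => ?_
      rw [Finset.sum_comm]
    rw [h1]
    have h2 : ∀ i j, ∑ x, f (x * t i) * f (x * t j) ≤
        (if i = j then a else 0) + (a ^ 2 / Nat.card G + r * a) := by
      intro i j
      by_cases hij : i = j
      · subst hij
        rw [if_pos rfl, hdiag]
        have : 0 ≤ a ^ 2 / Nat.card G + r * a := by positivity
        linarith
      · rw [if_neg hij, zero_add]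
        exact hpair i j hij
    calc ∑ i, ∑ j, ∑ x, f (x * t i) * f (x * t j)
        ≤ ∑ i : ι, ∑ j : ι, ((if i = j then a else 0) + (a ^ 2 / Nat.card G + r * a)) :=
          Finset.sum_le_sum fun i _ => Finset.sum_le_sum fun j _ => h2 i j
      _ = N * a + N ^ 2 * (a ^ 2 / Nat.card G + r * a) := by
          simp only [Finset.sum_add_distrib, Finset.sum_ite_eq, Finset.mem_univ, if_true, Finset.sum_const,
            Finset.card_univ, nsmul_eq_mul]
          rw [hN, Nat.card_eq_fintype_card (α := ι)]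
          ring
  -- Chebyshev
  set μ : ℝ := N * a / Nat.card G with hμ
  have hcheb : (Nat.card {x : G // ∀ i, x * t i ∉ A} : ℝ) * μ ^ 2 ≤ ∑ x, (X x - μ) ^ 2 := by
    have h1 : (Nat.card {x : G // ∀ i, x * t i ∉ A} : ℝ) * μ ^ 2 =
        ∑ x ∈ Finset.univ.filter (fun x : G => ∀ i, x * t i ∉ A), (X x - μ) ^ 2 := by
      have h2 : ∀ x ∈ Finset.univ.filter (fun x : G => ∀ i, x * t i ∉ A), (X x - μ) ^ 2 = μ ^ 2 := by
        intro x hx
        have h3 : X x = 0 := by
          simp only [hX]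
          refine Finset.sum_eq_zero fun i _ => ?_
          simp only [hfdef]
          rw [if_neg ((Finset.mem_filter.1 hx).2 i)]
        rw [h3]
        ring
      rw [Finset.sum_congr rfl h2, Finset.sum_const, nsmul_eq_mul, Nat.card_eq_fintype_card, Fintype.card_subtype]
    rw [h1]
    exact Finset.sum_le_sum_of_subset_of_nonneg (Finset.filter_subset _ _) fun i _ _ => sq_nonneg _
  have hvar : ∑ x, (X x - μ) ^ 2 = ∑ x, X x ^ 2 - N ^ 2 * a ^ 2 / Nat.card G := by
    have h1 : ∀ x, (X x - μ) ^ 2 = X x ^ 2 - 2 * μ * X x + μ ^ 2 := fun x => by ring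
    simp only [h1, Finset.sum_add_distrib, Finset.sum_sub_distrib, ← Finset.mul_sum, hX1, Finset.sum_const,
      Finset.card_univ, nsmul_eq_mul]
    rw [hμ, ← Nat.card_eq_fintype_card]
    field_simp
    ring
  have h1 : (Nat.card {x : G // ∀ i, x * t i ∉ A} : ℝ) * μ ^ 2 ≤ N * a + N ^ 2 * (r * a) := by
    rw [hvar] at hcheb
    have h2 : N ^ 2 * (a ^ 2 / Nat.card G + r * a) = N ^ 2 * a ^ 2 / Nat.card G + N ^ 2 * (r * a) := by ring
    linarith
  rcases eq_or_lt_of_le (mul_nonneg hN0 ha0) with h0 | hpos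
  · rw [← h0, mul_zero]
    positivity
  · have h3 : (Nat.card {x : G // ∀ i, x * t i ∉ A} : ℝ) * (N * a) * (N * a) ≤
        (Nat.card G : ℝ) ^ 2 * (1 + N * r) * (N * a) := by
      rw [hμ, div_pow, ← mul_div_assoc, div_le_iff₀ (by positivity)] at h1
      calc (Nat.card {x : G // ∀ i, x * t i ∉ A} : ℝ) * (N * a) * (N * a)
          = (Nat.card {x : G // ∀ i, x * t i ∉ A} : ℝ) * (N * a) ^ 2 := by ring
        _ ≤ (N * a + N ^ 2 * (r * a)) * (Nat.card G : ℝ) ^ 2 := h1
        _ = _ := by ring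
    exact le_of_mul_le_mul_right h3 hpos

open scoped Classical in
/-- the pairs `(x, y)` such that `⟨x, y⟩` misses `A` -/
theorem pairs_bound {d D N : ℕ} (hd : IrrDeg G d) (hd0 : 0 < d) {A : Set G} (hA : ∀ g x, x ∈ A → g * x * g⁻¹ ∈ A)
    {B : Set G} (hB : ∀ y, y ∉ B → ∀ j, 0 < j → j < N → Nat.card (centralizer ({y ^ j} : Set G)) ≤ D) :
    (Nat.card {xy : G × G // ∀ g ∈ Subgroup.closure {xy.1, xy.2}, g ∉ A} : ℝ) * (N * Nat.card A) ≤
      (Nat.card G : ℝ) * Nat.card B * (N * Nat.card A) + (Nat.card G : ℝ) ^ 3 * (1 + N * (Real.sqrt D / d)) := by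
  have hG : (0 : ℝ) < Nat.card G := by exact_mod_cast Nat.card_pos
  -- for each `y ∉ B`
  have h1 : ∀ y, y ∉ B → (Nat.card {x : G // ∀ i : Fin N, x * y ^ (i : ℕ) ∉ A} : ℝ) * (N * Nat.card A) ≤
      (Nat.card G : ℝ) ^ 2 * (1 + N * (Real.sqrt D / d)) := by
    intro y hy
    have h2 := coset_bound hd hd0 hA (D := D) (fun i : Fin N => y ^ (i : ℕ)) ?_
    · simpa only [Nat.card_eq_fintype_card, Fintype.card_fin] using h2
    · intro i j hij
      rcases lt_or_gt_of_ne (fun h => hij (Fin.ext h) : (i : ℕ) ≠ j) with hlt | hlt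
      · have e : (y ^ (i : ℕ))⁻¹ * y ^ (j : ℕ) = y ^ ((j : ℕ) - i) := by
          rw [pow_sub y hlt.le]
          exact ((Commute.refl y).pow_pow j i).inv_right.eq.symm
        rw [e]
        exact hB y hy _ (by omega) (by have := j.2; omega)
      · have e : (y ^ (i : ℕ))⁻¹ * y ^ (j : ℕ) = (y ^ ((i : ℕ) - j))⁻¹ := by
          rw [pow_sub y hlt.le, mul_inv_rev, inv_inv]
          exact (((Commute.refl y).pow_pow i j).inv_left).eq
        rw [e, show centralizer ({(y ^ ((i : ℕ) - j))⁻¹} : Set G) = centralizer {y ^ ((i : ℕ) - j)} by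
          ext g
          rw [mem_centralizer_singleton_iff, mem_centralizer_singleton_iff]
          exact ⟨fun h => (Commute.inv_right_iff.1 (show Commute g _ from h)).eq,
            fun h => ((show Commute g _ from h).inv_right).eq⟩]
        exact hB y hy _ (by omega) (by have := i.2; omega)
  -- sum over `y`
  have h3 : Nat.card {xy : G × G // ∀ g ∈ Subgroup.closure {xy.1, xy.2}, g ∉ A} ≤
      ∑ y : G, (if y ∈ B then Nat.card G else Nat.card {x : G // ∀ i : Fin N, x * y ^ (i : ℕ) ∉ A}) := by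
    have h4 : Nat.card {xy : G × G // ∀ g ∈ Subgroup.closure {xy.1, xy.2}, g ∉ A} ≤
        Nat.card (Σ y : G, {x : G // ∀ g ∈ Subgroup.closure {x, y}, g ∉ A}) := by
      refine Nat.card_le_card_of_injective (fun xy => ⟨xy.1.2, ⟨xy.1.1, xy.2⟩⟩) ?_
      rintro ⟨⟨x, y⟩, h⟩ ⟨⟨x', y'⟩, h'⟩ heq
      simp only [Sigma.mk.injEq] at heq
      obtain ⟨rfl, heq⟩ := heq
      have := congrArg Subtype.val (eq_of_heq heq)
      simp only at this
      subst this
      rfl
    refine h4.trans ?_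
    rw [Nat.card_sigma]
    refine Finset.sum_le_sum fun y _ => ?_
    split_ifs with hy
    · exact Nat.card_le_card_of_injective Subtype.val Subtype.val_injective
    · refine Nat.card_le_card_of_injective
        (fun x => (⟨x.1, fun i => x.2 _ (Subgroup.mul_mem _ (Subgroup.subset_closure (by simp))
          (Subgroup.pow_mem _ (Subgroup.subset_closure (by simp)) _))⟩ : {x : G // ∀ i : Fin N, x * y ^ (i : ℕ) ∉ A})) ?_
      intro a b hab
      exact Subtype.ext (congrArg (fun z : {x : G // ∀ i : Fin N, x * y ^ (i : ℕ) ∉ A} => (z : G)) hab)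
  have h5 : ((∑ y : G, (if y ∈ B then Nat.card G else Nat.card {x : G // ∀ i : Fin N, x * y ^ (i : ℕ) ∉ A}) : ℕ) : ℝ) *
      (N * Nat.card A) ≤ (Nat.card G : ℝ) * Nat.card B * (N * Nat.card A) +
        (Nat.card G : ℝ) ^ 3 * (1 + N * (Real.sqrt D / d)) := by
    push_cast
    rw [Finset.sum_mul]
    calc ∑ y : G, (if y ∈ B then (Nat.card G : ℝ) else (Nat.card {x : G // ∀ i : Fin N, x * y ^ (i : ℕ) ∉ A} : ℝ)) *
          (N * Nat.card A)
        ≤ ∑ y : G, ((if y ∈ B then (Nat.card G : ℝ) * (N * Nat.card A) else 0) +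
            (Nat.card G : ℝ) ^ 2 * (1 + N * (Real.sqrt D / d))) := by
          refine Finset.sum_le_sum fun y _ => ?_
          split_ifs with hy
          · have : 0 ≤ (Nat.card G : ℝ) ^ 2 * (1 + N * (Real.sqrt D / d)) := by positivity
            linarith
          · rw [zero_add]
            exact h1 y hy
      _ = _ := by
          rw [Finset.sum_add_distrib, Finset.sum_ite, Finset.sum_const_zero, add_zero, Finset.sum_const,
            Finset.sum_const, Finset.card_univ, nsmul_eq_mul, nsmul_eq_mul, ← Nat.card_eq_fintype_card]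
          have : (Finset.univ.filter (fun y : G => y ∈ B)).card = Nat.card B := by
            rw [Nat.card_eq_fintype_card, Fintype.card_subtype]
          rw [this]
          ring
  have h6 : (Nat.card {xy : G × G // ∀ g ∈ Subgroup.closure {xy.1, xy.2}, g ∉ A} : ℝ) ≤
      ((∑ y : G, (if y ∈ B then Nat.card G else Nat.card {x : G // ∀ i : Fin N, x * y ^ (i : ℕ) ∉ A}) : ℕ) : ℝ) := by
    exact_mod_cast h3
  exact (mul_le_mul_of_nonneg_right h6 (by positivity)).trans h5

end

end Cfsg.Agent.H926.RG
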